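import Cfsg.Prelude.Def_Blocks
import Cfsg.Agent.Characters.Core
import Cfsg.Agent.Blocks.HeightZero
import Cfsg.Agent.S0961
set_option linter.all false

/-!
# A bound for the number of characters in a block

`card_block_le` : a `p`-block of a finite group `G` with `|G|_p = p ^ a` contains at most `p ^ (2 a)`
irreducible characters.
-/

set_option autoImplicit false

open Cfsg
open scoped ComplexConjugate

namespace Cfsg.Agent.H659.BlockBound

open Cfsg.Agent.Blocks Cfsg.Agent.Characters.Core

variable {G : Type*} [Group G] [Finite G] {p : ℕ} [Fact p.Prime] {M : Ideal AlgInt}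

/-- The number of characters in the block of a character of height zero. -/
theorem card_blockOf_le (hM : IsPModular p M) (χ : IrrCharacter G)
    (h0 : blockHeight p (blockOf M (χ : G → ℂ)) (χ : G → ℂ) = 0) :
    Nat.card (blockOf M (χ : G → ℂ)) ≤ (p ^ (Nat.card G).factorization p) ^ 2 := by
  classical
  have hMp : M.IsPrime := Local.isPrime_of_isPModular hM
  have : Finite (IrrCharacter G) := finite_irr
  have := Fintype.ofFinite (IrrCharacter G)
  have := Fintype.ofFinite G
  set q : ℕ := p ^ (Nat.card G).factorization p with hq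
  set θ : G → ℂ := fun x : G => if p ∣ orderOf x then 0 else (q : ℂ) * (χ : G → ℂ) x with hθ
  have hgen : IsGeneralizedCharacter G θ := S0961.result p χ
  obtain ⟨m, hm⟩ := isGeneralizedCharacter_iff.1 hgen
  have hinner : ∀ ψ : IrrCharacter G, classInner θ (ψ : G → ℂ) = m ψ := by
    intro ψ
    rw [hm]
    exact classInner_sum_zsmul_irr m ψ
  -- the coefficients on the block are nonzero
  have hne : ∀ ψ ∈ blockOf M (χ : G → ℂ), m ψ ≠ 0 := by
    intro ψ hψ h
    have h1 := HeightZero.not_memLocalIdeal_regSum hM ψ χ h0 hψ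
    apply h1
    have h2 : HeightZero.regSum p (ψ : G → ℂ) (χ : G → ℂ) = 0 := by
      have h3 : conj (classInner θ (ψ : G → ℂ)) = (Nat.card G : ℂ)⁻¹ * q *
          ((ψ : G → ℂ) 1 * HeightZero.regSum p (ψ : G → ℂ) (χ : G → ℂ)) := by
        rw [classInner_conj_symm, classInner_def, mul_assoc]
        congr 1
        unfold HeightZero.regSum
        rw [Finset.mul_sum, Finset.mul_sum]
        refine Finset.sum_congr rfl fun x _ => ?_
        have h1' := HeightZero.irr_apply_one_ne_zero ψ
        simp only [hθ]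
        by_cases hx : p ∣ orderOf x
        · rw [if_pos hx, HeightZero.regCoeff_of_dvd _ hx]
          simp
        · rw [if_neg hx, HeightZero.regCoeff_of_not_dvd _ hx, map_mul, Complex.conj_natCast]
          field_simp
      rw [hinner ψ, h, Int.cast_zero, map_zero] at h3
      have hG0 : (Nat.card G : ℂ) ≠ 0 := card_ne_zero_complex
      have hq0 : (q : ℂ) ≠ 0 := by
        rw [hq]
        exact_mod_cast (pow_pos (Fact.out : p.Prime).pos _).ne'
      have h1' := HeightZero.irr_apply_one_ne_zero ψ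
      have h4 := (mul_eq_zero.1 h3.symm).resolve_left (mul_ne_zero (inv_ne_zero hG0) hq0)
      exact (mul_eq_zero.1 h4).resolve_left h1'
    rw [h2]
    exact Local.memLocalIdeal_zero
  -- the norm
  have hnorm : ((∑ ψ : IrrCharacter G, (m ψ) ^ 2 : ℤ) : ℂ) = classInner θ θ := by
    have h1 : θ = ∑ ψ : IrrCharacter G, (m ψ : ℂ) • (ψ : G → ℂ) := by
      rw [hm]
      simp only [Int.cast_smul_eq_zsmul]
    conv_rhs => rw [h1]
    rw [classInner_sum_smul_sum_smul]
    push_cast
    refine Finset.sum_congr rfl fun ψ _ => ?_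
    rw [map_intCast, pow_two]
  have hle : (∑ ψ : IrrCharacter G, (m ψ) ^ 2 : ℤ) ≤ (q : ℤ) ^ 2 := by
    have h1 := classInner_self_eq_ofReal θ
    have h2 := classInner_self_eq_ofReal (χ : G → ℂ)
    rw [classInner_irr_self χ.2] at h2
    rw [← hnorm] at h1
    have h1' : ((∑ ψ : IrrCharacter G, (m ψ) ^ 2 : ℤ) : ℝ) =
        (Nat.card G : ℝ)⁻¹ * ∑ g : G, Complex.normSq (θ g) := by exact_mod_cast h1
    have h2' : (1 : ℝ) = (Nat.card G : ℝ)⁻¹ * ∑ g : G, Complex.normSq ((χ : G → ℂ) g) := by
      exact_mod_cast h2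
    have h3 : ((∑ ψ : IrrCharacter G, (m ψ) ^ 2 : ℤ) : ℝ) ≤ ((q : ℤ) ^ 2 : ℤ) := by
      rw [h1']
      calc (Nat.card G : ℝ)⁻¹ * ∑ g : G, Complex.normSq (θ g)
          ≤ (Nat.card G : ℝ)⁻¹ * ∑ g : G, (q : ℝ) ^ 2 * Complex.normSq ((χ : G → ℂ) g) := by
            apply mul_le_mul_of_nonneg_left _ (by positivity)
            refine Finset.sum_le_sum fun g _ => ?_
            simp only [hθ]
            by_cases hg : p ∣ orderOf g
            · rw [if_pos hg, map_zero]
              exact mul_nonneg (by positivity) (Complex.normSq_nonneg _)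
            · rw [if_neg hg, map_mul, Complex.normSq_natCast, pow_two]
        _ = (q : ℝ) ^ 2 * ((Nat.card G : ℝ)⁻¹ * ∑ g : G, Complex.normSq ((χ : G → ℂ) g)) := by
            rw [← Finset.mul_sum]
            ring
        _ = (((q : ℤ) ^ 2 : ℤ) : ℝ) := by
            rw [← h2']
            push_cast
            ring
    exact_mod_cast h3
  have hcard : (Nat.card (blockOf M (χ : G → ℂ)) : ℤ) ≤ ∑ ψ : IrrCharacter G, (m ψ) ^ 2 := by
    rw [Nat.card_eq_fintype_card, Fintype.card_subtype, Finset.card_eq_sum_ones]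
    push_cast
    calc ∑ ψ ∈ Finset.univ.filter (fun ψ => ψ ∈ blockOf M (χ : G → ℂ)), (1 : ℤ)
        ≤ ∑ ψ ∈ Finset.univ.filter (fun ψ => ψ ∈ blockOf M (χ : G → ℂ)), (m ψ) ^ 2 := by
          refine Finset.sum_le_sum fun ψ hψ => ?_
          have h1 := hne ψ (Finset.mem_filter.1 hψ).2
          have h2 : 0 < (m ψ) ^ 2 := by positivity
          linarith
      _ ≤ ∑ ψ : IrrCharacter G, (m ψ) ^ 2 :=
          Finset.sum_le_sum_of_subset_of_nonneg (Finset.filter_subset _ _)
            fun ψ _ _ => sq_nonneg _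
  exact_mod_cast hcard.trans hle

/-- **The number of characters in a block** is at most the square of the `p`-part of the group
order. -/
theorem card_block_le (hM : IsPModular p M) (B : Set (IrrCharacter G)) (hB : IsPBlock M B) :
    Nat.card B ≤ (p ^ (Nat.card G).factorization p) ^ 2 := by
  have hMp : M.IsPrime := Local.isPrime_of_isPModular hM
  obtain ⟨χ₀, rfl⟩ := hB
  -- a character of height zero
  have hne : ((fun χ : IrrCharacter G => (charDegree (χ : G → ℂ)).factorization p) ''
      blockOf M (χ₀ : G → ℂ)).Nonempty := ⟨_, χ₀, Basic.mem_blockOf_self χ₀, rfl⟩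
  obtain ⟨χ, hχ, hχ'⟩ := Nat.sInf_mem hne
  have hB : blockOf M (χ₀ : G → ℂ) = blockOf M (χ : G → ℂ) := Basic.blockOf_eq_of_sameBlock hχ
  rw [hB]
  apply card_blockOf_le hM χ
  rw [← hB]
  unfold blockHeight
  rw [← hχ']
  simp

end Cfsg.Agent.H659.BlockBound
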